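import Mathlib
import Cfsg.Prelude.Def_Perm

/-!
Elementary arithmetic in (right) near-fields.
-/

set_option autoImplicit false

namespace H26.NF

variable {F : Type*} [Cfsg.NearField F]

theorem add_mul' (a b c : F) : (a + b) * c = a * c + b * c := Cfsg.NearField.right_distrib a b c

theorem mul_zero' (a : F) : a * 0 = 0 := Cfsg.NearField.mul_zero a

theorem zero_mul' (a : F) : 0 * a = 0 := by
  have := add_mul' (0 : F) 0 a
  rw [add_zero] at this
  exact left_eq_add.mp this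

theorem neg_mul' (a b : F) : (-a) * b = -(a * b) := by
  rw [eq_neg_iff_add_eq_zero, ← add_mul', neg_add_cancel, zero_mul']

theorem sub_mul' (a b c : F) : (a - b) * c = a * c - b * c := by
  rw [sub_eq_add_neg, add_mul', neg_mul', sub_eq_add_neg]

theorem mul_ne_zero' {a b : F} (ha : a ≠ 0) (hb : b ≠ 0) : a * b ≠ 0 := by
  intro h
  obtain ⟨c, hc, -⟩ := Cfsg.NearField.exists_inv b hb
  apply ha
  rw [← mul_one a, ← hc, ← mul_assoc, h, zero_mul']

theorem one_ne_zero' : (1 : F) ≠ 0 := Cfsg.NearField.zero_ne_one.symm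

theorem inv_ne_zero' {a b : F} (h : a * b = 1) : b ≠ 0 := by
  rintro rfl
  rw [mul_zero'] at h
  exact Cfsg.NearField.zero_ne_one h

theorem mul_left_cancel' {a b c : F} (ha : a ≠ 0) (h : a * b = a * c) : b = c := by
  obtain ⟨d, -, hd⟩ := Cfsg.NearField.exists_inv a ha
  rw [← one_mul b, ← one_mul c, ← hd, mul_assoc, h, mul_assoc]

/-- The affine group of a near-field. -/
def affGroup (F : Type*) [Cfsg.NearField F] : Subgroup (Equiv.Perm F) where
  carrier := {σ | ∃ a b : F, a ≠ 0 ∧ ∀ x : F, σ x = x * a + b}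
  one_mem' := ⟨1, 0, one_ne_zero', fun x => by simp⟩
  mul_mem' := by
    rintro σ τ ⟨a, b, ha, hσ⟩ ⟨c, d, hc, hτ⟩
    refine ⟨c * a, d * a + b, mul_ne_zero' hc ha, fun x => ?_⟩
    rw [Equiv.Perm.mul_apply, hτ, hσ, add_mul', mul_assoc, add_assoc]
  inv_mem' := by
    rintro σ ⟨a, b, ha, hσ⟩
    obtain ⟨c, hc1, hc2⟩ := Cfsg.NearField.exists_inv a ha
    refine ⟨c, (-b) * c, inv_ne_zero' hc1, fun x => ?_⟩
    rw [Equiv.Perm.inv_eq_iff_eq, hσ, ← add_mul', mul_assoc, hc2, mul_one, neg_add_cancel_right]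

theorem mem_affGroup {σ : Equiv.Perm F} :
    σ ∈ affGroup F ↔ ∃ a b : F, a ≠ 0 ∧ ∀ x : F, σ x = x * a + b := Iff.rfl

theorem exists_aff {a : F} (ha : a ≠ 0) (b : F) :
    ∃ σ : affGroup F, ∀ x : F, σ • x = x * a + b := by
  obtain ⟨c, hc1, hc2⟩ := Cfsg.NearField.exists_inv a ha
  refine ⟨⟨⟨fun x => x * a + b, fun y => (y - b) * c, fun x => ?_, fun y => ?_⟩, a, b, ha,
    fun x => rfl⟩, fun x => rfl⟩
  · simp only [add_sub_cancel_right, mul_assoc, hc1, mul_one]
  · simp only [mul_assoc, hc2, mul_one, sub_add_cancel]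

theorem affGroup_two_trans : MulAction.IsMultiplyPretransitive (affGroup F) F 2 := by
  rw [MulAction.is_two_pretransitive_iff]
  intro u v s t huv hst
  obtain ⟨c, hc1, hc2⟩ := Cfsg.NearField.exists_inv (u - v) (sub_ne_zero.mpr huv)
  obtain ⟨σ, hσ⟩ := exists_aff (mul_ne_zero' (inv_ne_zero' hc1) (sub_ne_zero.mpr hst))
    (-(u * (c * (s - t))) + s)
  refine ⟨σ, by rw [hσ, add_neg_cancel_left], ?_⟩
  rw [hσ, ← add_assoc, ← sub_eq_add_neg, ← sub_mul', ← neg_sub u v, neg_mul', ← mul_assoc, hc1,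
    one_mul, neg_sub, sub_add_cancel]

theorem affGroup_sharp (g : affGroup F) (u v : F) (huv : u ≠ v) (hu : g • u = u) (hv : g • v = v) :
    g = 1 := by
  obtain ⟨a, b, ha, hg⟩ := g.2
  have hu' : u * a + b = u := (hg u).symm.trans hu
  have hv' : v * a + b = v := (hg v).symm.trans hv
  have h1 : (u - v) * a = (u - v) * 1 := by
    rw [sub_mul', mul_one, ← add_sub_add_right_eq_sub _ _ b, hu', hv']
  have ha1 := mul_left_cancel' (sub_ne_zero.mpr huv) h1
  rw [ha1, mul_one, add_eq_left] at hu'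
  ext x
  rw [hg, ha1, hu']
  simp

end H26.NF
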