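import Mathlib
import Cfsg.Agent.Base

/-! Odd-order automorphisms of doubly transitive groups. -/

set_option linter.unusedSectionVars false

namespace H26.OddAut

open MulAction Matrix

variable {G Ω : Type*} [Group G] [MulAction G Ω] [Fintype Ω] [DecidableEq Ω]

/-- Matrices intertwining the action with its twist by `β`. -/
def Inv (β : MulAut G) (M : Matrix Ω Ω ℤ) : Prop := ∀ (g : G) x y, M (β g • x) (g • y) = M x y

theorem Inv.mul {β γ : MulAut G} {M M' : Matrix Ω Ω ℤ} (h : Inv β M) (h' : Inv γ M') :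
    Inv (β * γ) (M * M') := by
  intro g x y
  simp only [Matrix.mul_apply]
  rw [← Equiv.sum_comp (MulAction.toPerm (γ g))]
  refine Finset.sum_congr rfl fun z _ => ?_
  rw [MulAction.toPerm_apply, h' g z y, MulAut.mul_apply, h (γ g) x z]

theorem Inv.pow {β : MulAut G} {M : Matrix Ω Ω ℤ} (h : Inv β M) (j : ℕ) : Inv (β ^ j) (M ^ j) := by
  induction j with
  | zero => intro g x y; simp [Matrix.one_apply]
  | succ j ih => rw [pow_succ, pow_succ]; exact ih.mul h

theorem Inv.transpose {β : MulAut G} {M : Matrix Ω Ω ℤ} (h : Inv β M) : Inv β⁻¹ Mᵀ := by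
  intro g x y
  have := h (β⁻¹ g) y x
  simpa using this

theorem Inv.form (h2 : IsMultiplyPretransitive G Ω 2) {M : Matrix Ω Ω ℤ} (h : Inv (1 : MulAut G) M)
    {a b : Ω} (hab : a ≠ b) (x y : Ω) : M x y = if x = y then M a a else M a b := by
  split_ifs with e
  · subst e
    haveI := isPretransitive_of_is_two_pretransitive (G := G) (α := Ω)
    obtain ⟨g, rfl⟩ := exists_smul_eq G a x
    exact h g a a
  · obtain ⟨g, rfl, rfl⟩ := is_two_pretransitive_iff.1 h2 hab e
    exact h g a b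

theorem mulVec_form {M : Matrix Ω Ω ℤ} {c d : ℤ} (h : ∀ x y, M x y = if x = y then c else d)
    (v : Ω → ℤ) (hv : ∑ x, v x = 0) : M *ᵥ v = (c - d) • v := by
  ext x
  have : ∀ y, M x y * v y = (if x = y then (c - d) * v y else 0) + d * v y := fun y => by
    rw [h]; split_ifs <;> ring
  simp only [Matrix.mulVec, dotProduct, this, Finset.sum_add_distrib, ← Finset.mul_sum, hv]
  simp

theorem colsum_form {M : Matrix Ω Ω ℤ} {c d : ℤ} (h : ∀ x y, M x y = if x = y then c else d)
    (y : Ω) : ∑ x, M x y = (c - d) + d * Fintype.card Ω := by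
  have : ∀ x, M x y = (if x = y then (c - d) else 0) + d := fun x => by
    rw [h]; split_ifs <;> ring
  simp [this, Finset.sum_add_distrib, mul_comm]

theorem arith {n k N c d l : ℤ} {s : ℕ} (hk0 : 0 < k) (hco : IsCoprime k n) (hN1 : N ≤ k) (hN0 : 0 ≤ N)
    (hN2 : N ≤ n - k) (h1 : k ^ 2 = N + l * n) (h2 : k ^ (2 * s + 1) = c + d * n)
    (h3 : c ^ 2 = N ^ (2 * s + 1)) : k = 1 ∨ k = n - 1 := by
  obtain ⟨m, hm, hc⟩ : ∃ m : ℤ, N = m ^ 2 ∧ c = m * N ^ s := by
    by_cases h0 : N = 0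
    · refine ⟨0, by simp [h0], ?_⟩
      rw [h0, zero_pow (by omega)] at h3
      simpa using h3
    · have : (N ^ s) ^ 2 ∣ c ^ 2 := ⟨N, by rw [h3]; ring⟩
      obtain ⟨m, hm⟩ := (Int.pow_dvd_pow_iff two_ne_zero).1 this
      refine ⟨m, ?_, by rw [hm, mul_comm]⟩
      have h4 : (N ^ s) ^ 2 ≠ 0 := by positivity
      refine mul_left_cancel₀ h4 ?_
      rw [← mul_pow, ← hm, h3]; ring
  have h4 : n ∣ (k ^ 2) ^ s - N ^ s := (Dvd.intro_left l (by linarith) : n ∣ k ^ 2 - N).trans
    (sub_dvd_pow_sub_pow _ _ s)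
  have h5 : n ∣ (k ^ 2) ^ s * (k - m) := by
    have e : (k ^ 2) ^ s * (k - m) = d * n - m * ((k ^ 2) ^ s - N ^ s) := by
      rw [hc] at h2
      linear_combination h2
    rw [e]
    exact dvd_sub (dvd_mul_left _ _) (h4.mul_left _)
  have h6 : n ∣ k - m := (hco.pow_left.pow_left.symm).dvd_of_dvd_mul_left h5
  have hn : 0 < n := by linarith
  obtain ⟨t, ht⟩ := h6
  have hm1 : m ≤ m ^ 2 := by nlinarith
  have hm2 : -m ≤ m ^ 2 := by nlinarith
  have ht0 : 0 ≤ t := by
    by_contra h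
    have : t ≤ -1 := by omega
    nlinarith
  have ht1 : t ≤ 1 := by
    by_contra h
    have : 2 ≤ t := by omega
    nlinarith
  rcases (by omega : t = 0 ∨ t = 1) with rfl | rfl
  · left; nlinarith
  · have e : m = k - n := by linarith
    rcases (by nlinarith : n - k ≤ 1).lt_or_eq with h | h
    · left
      have : n = k := by omega
      subst this
      have := isCoprime_self.1 hco
      rcases Int.isUnit_iff.1 this with h | h <;> omega
    · right; omega

theorem card_orbit (h2 : IsMultiplyPretransitive G Ω 2) (o : Ω) (α : MulAut G) {r : ℕ} (hr : Odd r)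
    (hα : α ^ r = 1) (ω : Ω)
    (hk : (Nat.card (orbit ((stabilizer G o).map α.toMonoidHom) ω)).Coprime (Fintype.card Ω)) :
    Nat.card (orbit ((stabilizer G o).map α.toMonoidHom) ω) = 1 ∨
      Nat.card (orbit ((stabilizer G o).map α.toMonoidHom) ω) = Fintype.card Ω - 1 := by
  classical
  set D := orbit ((stabilizer G o).map α.toMonoidHom) ω with hD
  have hkpos : 0 < Nat.card D := Nat.card_pos_iff.2 ⟨⟨⟨ω, mem_orbit_self ω⟩⟩, inferInstance⟩
  rcases subsingleton_or_nontrivial Ω with h1 | h1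
  · left
    have : Nat.card D ≤ 1 := Finite.card_le_one_iff_subsingleton.2 inferInstance
    omega
  haveI := isPretransitive_of_is_two_pretransitive (G := G) (α := Ω)
  obtain ⟨a, b, hab⟩ := exists_pair_ne Ω
  have hDinv : ∀ h : G, h • o = o → ∀ x ∈ D, α h • x ∈ D := fun h hh x hx =>
    mapsTo_smul_orbit (⟨α h, h, hh, rfl⟩ : (stabilizer G o).map α.toMonoidHom) ω hx
  let R : Ω → Ω → Prop := fun x y => ∃ g : G, g • o = y ∧ (α g)⁻¹ • x ∈ D
  have hR : ∀ x (g : G), R x (g • o) ↔ (α g)⁻¹ • x ∈ D := fun x g => by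
    refine ⟨fun ⟨g', h1, h2⟩ => ?_, fun h => ⟨g, rfl, h⟩⟩
    have := hDinv (g⁻¹ * g') (by rw [mul_smul, h1, inv_smul_smul]) _ h2
    simpa [mul_smul] using this
  let B : Matrix Ω Ω ℤ := fun x y => if R x y then 1 else 0
  have hB : ∀ x y, B x y = if R x y then 1 else 0 := fun _ _ => rfl
  have hInv : Inv α B := fun g x y => by
    obtain ⟨g', rfl⟩ := exists_smul_eq G o y
    simp only [hB, ← mul_smul, hR]
    simp
  have hcol : ∀ y, ∑ x, B x y = Nat.card D := fun y => by
    obtain ⟨g, rfl⟩ := exists_smul_eq G o y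
    rw [← Equiv.sum_comp (MulAction.toPerm (α g))]
    simp only [hB, hR, MulAction.toPerm_apply, inv_smul_smul]
    rw [Finset.sum_boole, Nat.card_eq_fintype_card, Fintype.card_subtype]
  have hrow0 : ∀ x, ∑ y, B x y = ∑ y, B a y := fun x => by
    obtain ⟨g, rfl⟩ := exists_smul_eq G a x
    obtain ⟨g, rfl⟩ := α.surjective g
    rw [← Equiv.sum_comp (MulAction.toPerm g)]
    exact Finset.sum_congr rfl fun y _ => hInv g a y
  have hn0 : (0 : ℤ) < Fintype.card Ω := by exact_mod_cast Fintype.card_pos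
  have hrow : ∀ x, ∑ y, B x y = Nat.card D := fun x => by
    have h1 : ∑ x, ∑ y, B x y = ∑ y, ∑ x, B x y := Finset.sum_comm
    simp only [hrow0, hcol, Finset.sum_const, Finset.card_univ, nsmul_eq_mul] at h1
    rw [hrow0]
    exact mul_left_cancel₀ hn0.ne' h1
  have hpowcol : ∀ (j : ℕ) y, ∑ x, (B ^ j) x y = (Nat.card D : ℤ) ^ j := by
    intro j
    induction j with
    | zero => intro y; simp [Matrix.one_apply]
    | succ j ih =>
      intro y
      simp only [pow_succ, Matrix.mul_apply]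
      rw [Finset.sum_comm]
      simp only [← Finset.sum_mul, ih]
      rw [← Finset.mul_sum, hcol]
  have hBB : Inv (1 : MulAut G) (Bᵀ * B) := by simpa using hInv.transpose.mul hInv
  have fBB := hBB.form h2 hab
  have hdiag : (Bᵀ * B) a a = Nat.card D := by
    rw [← hcol a, Matrix.mul_apply]
    refine Finset.sum_congr rfl fun x _ => ?_
    simp only [Matrix.transpose_apply, hB]
    split_ifs <;> simp
  rw [hdiag] at fBB
  set l := (Bᵀ * B) a b with hl
  have hl' : l = ∑ x, B x a * B x b := by rw [hl, Matrix.mul_apply]; rfl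
  have e1 : (Nat.card D : ℤ) ^ 2 = (Nat.card D - l) + l * Fintype.card Ω := by
    rw [← colsum_form fBB a]
    simp only [Matrix.mul_apply, Matrix.transpose_apply]
    rw [Finset.sum_comm]
    simp only [← Finset.sum_mul, hrow]
    rw [← Finset.mul_sum, hcol, pow_two]
  have hBr : Inv (1 : MulAut G) (B ^ r) := hα ▸ hInv.pow r
  have fBr := hBr.form h2 hab
  have e2 := colsum_form fBr a
  rw [hpowcol] at e2
  have hsum : ∀ (j : ℕ) (v : Ω → ℤ), ∑ x, v x = 0 → ∑ x, ((B ^ j) *ᵥ v) x = 0 := fun j v hv => by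
    simp only [Matrix.mulVec, dotProduct]
    rw [Finset.sum_comm]
    simp only [← Finset.sum_mul, hpowcol]
    rw [← Finset.mul_sum, hv, mul_zero]
  have hN : ∀ (j : ℕ) (v : Ω → ℤ), ∑ x, v x = 0 →
      (Bᵀ ^ j) *ᵥ ((B ^ j) *ᵥ v) = ((Nat.card D : ℤ) - l) ^ j • v := by
    intro j
    induction j with
    | zero => intro v _; simp
    | succ j ih =>
      intro v hv
      rw [pow_succ Bᵀ, pow_succ' B, ← Matrix.mulVec_mulVec, ← Matrix.mulVec_mulVec,
        Matrix.mulVec_mulVec _ Bᵀ B, mulVec_form fBB _ (hsum j v hv), Matrix.mulVec_smul, ih v hv,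
        smul_smul, pow_succ']
  let v : Ω → ℤ := Pi.single a 1 - Pi.single b 1
  have hv : ∑ x, v x = 0 := by simp [v, Finset.sum_sub_distrib]
  have e3 := hN r v hv
  rw [← Matrix.transpose_pow, mulVec_form fBr v hv, Matrix.mulVec_smul,
    mulVec_form (M := (B ^ r)ᵀ) (c := (B ^ r) a a) (d := (B ^ r) a b) (fun x y => by
      rw [Matrix.transpose_apply, fBr]; simp only [eq_comm]) v hv, smul_smul] at e3
  have e4 := congrFun e3 a
  have hva : v a = 1 := by simp [v, hab]
  rw [Pi.smul_apply, Pi.smul_apply, hva, smul_eq_mul, smul_eq_mul, mul_one, mul_one] at e4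
  obtain ⟨s, rfl⟩ := hr
  have h01 : ∀ x y, 0 ≤ B x y ∧ B x y ≤ 1 := fun x y => by rw [hB]; split_ifs <;> simp
  have a1 : 0 ≤ l := hl' ▸ Finset.sum_nonneg fun x _ => mul_nonneg (h01 _ _).1 (h01 _ _).1
  have a2 : l ≤ Nat.card D := by
    rw [hl', ← hcol a]
    exact Finset.sum_le_sum fun x _ => by nlinarith [h01 x a, h01 x b]
  have a3 : (Nat.card D : ℤ) - l ≤ Fintype.card Ω - Nat.card D := by
    have : (Fintype.card Ω : ℤ) = ∑ _x : Ω, (1 : ℤ) := by simp
    conv_lhs => rw [hl', ← hcol a]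
    rw [this, ← hcol b, ← Finset.sum_sub_distrib, ← Finset.sum_sub_distrib]
    exact Finset.sum_le_sum fun x _ => by nlinarith [h01 x a, h01 x b]
  rcases arith (s := s) (by exact_mod_cast hkpos) (Nat.isCoprime_iff_coprime.2 hk) (by linarith)
    (by linarith) a3 e1 e2 (by rw [pow_two]; exact e4) with h | h
  · left; exact_mod_cast h
  · right; omega

theorem exists_perm (h2 : IsMultiplyPretransitive G Ω 2) (o : Ω) (α : MulAut G) {r : ℕ} (hr : Odd r)
    (hα : α ^ r = 1) (ω : Ω)
    (hk : (Nat.card (orbit ((stabilizer G o).map α.toMonoidHom) ω)).Coprime (Fintype.card Ω)) :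
    ∃ σ : Equiv.Perm Ω, ∀ (g : G) x, α g • σ x = σ (g • x) := by
  classical
  haveI := isPretransitive_of_is_two_pretransitive (G := G) (α := Ω)
  obtain ⟨τ, hτ⟩ : ∃ τ : Ω, ∀ h : G, h • o = o → α h • τ = τ := by
    have hDinv : ∀ h : G, h • o = o → ∀ x, x ∈ orbit ((stabilizer G o).map α.toMonoidHom) ω ↔
        α h • x ∈ orbit ((stabilizer G o).map α.toMonoidHom) ω := fun h hh x =>
      ⟨fun e => mapsTo_smul_orbit (⟨α h, h, hh, rfl⟩ : (stabilizer G o).map α.toMonoidHom) ω e,
        fun e => by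
          have := mapsTo_smul_orbit (⟨α h, h, hh, rfl⟩⁻¹ : (stabilizer G o).map α.toMonoidHom) ω e
          change (α h)⁻¹ • α h • x ∈ _ at this
          rwa [inv_smul_smul] at this⟩
    rcases card_orbit h2 o α hr hα ω hk with h | h
    · refine ⟨ω, fun g hg => ?_⟩
      obtain ⟨y, hy⟩ := Set.ncard_eq_one.1 h
      have h1 := mem_orbit_self (M := (stabilizer G o).map α.toMonoidHom) ω
      have h3 := (hDinv g hg ω).1 h1
      rw [hy] at h1 h3
      exact h3.trans h1.symm
    · have h1 := Set.ncard_add_ncard_compl (orbit ((stabilizer G o).map α.toMonoidHom) ω)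
      rw [← Nat.card_coe_set_eq, h, Nat.card_eq_fintype_card] at h1
      have : 0 < Fintype.card Ω := Fintype.card_pos_iff.2 ⟨o⟩
      obtain ⟨y, hy⟩ := Set.ncard_eq_one.1
        (show (orbit ((stabilizer G o).map α.toMonoidHom) ω)ᶜ.ncard = 1 by omega)
      refine ⟨y, fun g hg => ?_⟩
      have h3 : y ∈ (orbit ((stabilizer G o).map α.toMonoidHom) ω)ᶜ := by rw [hy]; rfl
      have h4 : α g • y ∈ (orbit ((stabilizer G o).map α.toMonoidHom) ω)ᶜ := fun e =>
        h3 ((hDinv g hg y).2 e)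
      rwa [hy] at h4
  choose f hf using exists_smul_eq G o (α := Ω)
  have hσ : ∀ g : G, α (f (g • o)) • τ = α g • τ := fun g => by
    have := hτ (g⁻¹ * f (g • o)) (by rw [mul_smul, hf, inv_smul_smul])
    rwa [map_mul, mul_smul, map_inv, inv_smul_eq_iff] at this
  have hsurj : Function.Surjective fun x => α (f x) • τ := fun y => by
    obtain ⟨g, rfl⟩ := exists_smul_eq G τ y
    obtain ⟨g, rfl⟩ := α.surjective g
    exact ⟨g • o, hσ g⟩
  refine ⟨Equiv.ofBijective _ hsurj.bijective_of_finite, fun g x => ?_⟩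
  show α g • α (f x) • τ = α (f (g • x)) • τ
  conv_rhs => rw [← hf x, ← mul_smul, hσ, map_mul, mul_smul]

end H26.OddAut
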