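import Mathlib

/-!
Certificates for regular actions of finitely generated groups; the case of `GL₂(ZMod p)` acting on
non-zero vectors.
-/

set_option autoImplicit false

namespace H26

theorem existsUnique_smul_of_cert {G V : Type*} [Group G] [MulAction G V] (S : Set G)
    (P : V → Prop) (hP : ∀ (g : G) v, P v → P (g • v)) (e e' : V) (he : P e) (d : V → ℕ)
    (hd : ∀ v, P v → v = e ∨ ∃ s ∈ S, d (s • v) < d v) (w : V → V) (hw0 : w e = e')
    (hw : ∀ s ∈ S, ∀ v, P v → w (s • v) = s • w v)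
    (hf : ∀ g : G, g • e = e → g • e' = e' → g = 1) (u v : V) (hu : P u) (hv : P v) :
    ∃! h : Subgroup.closure S, (h : G) • u = v := by
  have h1 : ∀ n v, d v = n → P v → ∃ h ∈ Subgroup.closure S, h • v = e := by
    intro n
    induction n using Nat.strong_induction_on with
    | _ n ih =>
      intro v hn hv
      rcases hd v hv with rfl | ⟨s, hs, hlt⟩
      · exact ⟨1, one_mem _, one_smul _ _⟩
      · obtain ⟨h, hh, hhv⟩ := ih _ (hn ▸ hlt) _ rfl (hP s v hv)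
        exact ⟨h * s, mul_mem hh (Subgroup.subset_closure hs), by rw [mul_smul, hhv]⟩
  have h2 : ∀ h ∈ Subgroup.closure S, ∀ v, P v → w (h • v) = h • w v := by
    intro h hh
    induction hh using Subgroup.closure_induction with
    | mem s hs => exact hw s hs
    | one => intro v _; simp
    | mul x y _ _ hx hy => intro v hv; rw [mul_smul, hx _ (hP y v hv), hy v hv, mul_smul]
    | inv x _ hx => intro v hv; rw [eq_inv_smul_iff, ← hx _ (hP _ v hv), smul_inv_smul]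
  obtain ⟨a, ha, hau⟩ := h1 _ u rfl hu
  obtain ⟨b, hb, hbv⟩ := h1 _ v rfl hv
  refine ⟨⟨b⁻¹ * a, mul_mem (inv_mem hb) ha⟩, by
    show (b⁻¹ * a) • u = v
    rw [mul_smul, hau, inv_smul_eq_iff, hbv], fun k hk => Subtype.ext ?_⟩
  have h3 : (b * k * a⁻¹) • e = e := by
    rw [mul_smul, mul_smul, inv_smul_eq_iff.mpr hau.symm, hk, hbv]
  have h4 := hf _ h3 (by rw [← hw0, ← h2 _ (mul_mem (mul_mem hb k.2) (inv_mem ha)) e he, h3])
  show (k : G) = b⁻¹ * a
  rw [mul_inv_eq_one] at h4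
  rw [← h4, inv_mul_cancel_left]

theorem gl2_regular_of_cert {p : ℕ} [NeZero p] [Nontrivial (ZMod p)]
    (S : Set (Matrix.GeneralLinearGroup (Fin 2) (ZMod p)))
    (L : List (ZMod p × ZMod p × ZMod p × ZMod p))
    (hS : ∀ s ∈ S, ∃ q ∈ L, (s : Matrix (Fin 2) (Fin 2) (ZMod p)) = !![q.1, q.2.1; q.2.2.1, q.2.2.2])
    (hL : ∀ q ∈ L, ∃ s ∈ S, (s : Matrix (Fin 2) (Fin 2) (ZMod p)) = !![q.1, q.2.1; q.2.2.1, q.2.2.2])
    (w₁ w₂ : ZMod p → ZMod p → ZMod p) (d : ZMod p → ZMod p → ℕ) (h0 : w₁ 1 0 = 0 ∧ w₂ 1 0 = 1)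
    (hchk : ∀ x y : ZMod p, (x = 0 ∧ y = 0) ∨
      ((∀ q ∈ L, w₁ (q.1 * x + q.2.1 * y) (q.2.2.1 * x + q.2.2.2 * y)
            = q.1 * w₁ x y + q.2.1 * w₂ x y ∧
          w₂ (q.1 * x + q.2.1 * y) (q.2.2.1 * x + q.2.2.2 * y)
            = q.2.2.1 * w₁ x y + q.2.2.2 * w₂ x y) ∧
        ((x = 1 ∧ y = 0) ∨
          ∃ q ∈ L, d (q.1 * x + q.2.1 * y) (q.2.2.1 * x + q.2.2.2 * y) < d x y))) :
    Nat.card (Subgroup.closure S) = p ^ 2 - 1 ∧ ∀ v w : Fin 2 → ZMod p, v ≠ 0 → w ≠ 0 →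
      ∃! h : Subgroup.closure S, Matrix.mulVec ((h : Matrix.GeneralLinearGroup (Fin 2) (ZMod p)) :
        Matrix (Fin 2) (Fin 2) (ZMod p)) v = w := by
  classical
  have hsm : ∀ (g : Matrix.GeneralLinearGroup (Fin 2) (ZMod p)) (v : Fin 2 → ZMod p),
      g • v = (g : Matrix (Fin 2) (Fin 2) (ZMod p)).mulVec v := fun _ _ => rfl
  have hq : ∀ (q : ZMod p × ZMod p × ZMod p × ZMod p) (v : Fin 2 → ZMod p),
      (!![q.1, q.2.1; q.2.2.1, q.2.2.2] : Matrix (Fin 2) (Fin 2) (ZMod p)).mulVec v =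
        ![q.1 * v 0 + q.2.1 * v 1, q.2.2.1 * v 0 + q.2.2.2 * v 1] := by
    intro q v
    ext i
    fin_cases i <;> simp [Matrix.mulVec, dotProduct]
  have hne : ∀ v : Fin 2 → ZMod p, v ≠ 0 → ¬ (v 0 = 0 ∧ v 1 = 0) := by
    intro v hv h
    apply hv
    ext i
    fin_cases i
    exacts [h.1, h.2]
  have he : (![1, 0] : Fin 2 → ZMod p) ≠ 0 := fun h => one_ne_zero (congrFun h 0)
  have key := existsUnique_smul_of_cert S (fun v : Fin 2 → ZMod p => v ≠ 0)
    (fun g v hv h => hv (by rw [← inv_smul_smul g v, h, smul_zero])) ![1, 0] ![0, 1] he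
    (fun v => d (v 0) (v 1)) (by
      intro v hv
      rcases ((hchk (v 0) (v 1)).resolve_left (hne v hv)).2 with h | ⟨q, hqL, h⟩
      · left
        ext i
        fin_cases i
        exacts [h.1, h.2]
      · obtain ⟨s, hs, hsq⟩ := hL q hqL
        exact Or.inr ⟨s, hs, by simpa [hsm, hsq, hq] using h⟩)
    (fun v => ![w₁ (v 0) (v 1), w₂ (v 0) (v 1)]) (by simp [h0]) (by
      intro s hs v hv
      obtain ⟨q, hqL, hsq⟩ := hS s hs
      obtain ⟨h1, h2⟩ := ((hchk (v 0) (v 1)).resolve_left (hne v hv)).1 q hqL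
      simp only [hsm, hsq, hq]
      simp [h1, h2]) (by
      intro g h1 h2
      rw [hsm] at h1 h2
      ext i j
      have h3 := congrFun h1 i
      have h4 := congrFun h2 i
      fin_cases i <;> fin_cases j <;> simp_all [Matrix.mulVec, dotProduct])
  refine ⟨?_, key⟩
  have : Nat.card (Subgroup.closure S) = Nat.card {v : Fin 2 → ZMod p // v ≠ 0} := by
    apply Nat.card_congr (Equiv.ofBijective (fun h : Subgroup.closure S =>
      (⟨(h : Matrix.GeneralLinearGroup (Fin 2) (ZMod p)) • ![1, 0],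
        fun h0 => he (by rw [← inv_smul_smul h.1 ![1, 0], h0, smul_zero])⟩ :
          {v : Fin 2 → ZMod p // v ≠ 0})) ⟨?_, ?_⟩)
    · intro a b hab
      have hab' : a.1 • (![1, 0] : Fin 2 → ZMod p) = b.1 • ![1, 0] := congrArg Subtype.val hab
      have hb0 : b.1 • (![1, 0] : Fin 2 → ZMod p) ≠ 0 :=
        fun h0 => he (by rw [← inv_smul_smul b.1 ![1, 0], h0, smul_zero])
      exact (key _ _ he hb0).unique hab' rfl
    · rintro ⟨v, hv⟩
      obtain ⟨h, hh⟩ := (key _ v he hv).exists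
      exact ⟨h, Subtype.ext hh⟩
  rw [this, Nat.card_eq_fintype_card, Fintype.card_subtype_compl]
  simp [ZMod.card]

end H26
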