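import Mathlib
import Cfsg.Agent.Base

/-! Direct powers of a non-abelian simple group: automorphisms and subdirect subgroups. -/

namespace H26.Scott

variable {T I : Type*} [Group T] [IsSimpleGroup T] [Finite I]

/-- A homomorphism from a direct power onto `T` factors through one coordinate. -/
theorem exists_coord (hT : ¬ IsMulCommutative T) (f : (I → T) →* T) (hf : Function.Surjective f) :
    ∃ (i : I) (θ : T ≃* T), ∀ x, f x = θ (x i) := by
  classical
  let g : I → T →* T := fun i => f.comp (MonoidHom.mulSingle (fun _ => T) i)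
  have hg : ∀ i t, g i t = f (Pi.mulSingle i t) := fun _ _ => rfl
  have hn : ∀ i, (g i).range.Normal := fun i => ⟨by
    rintro _ ⟨t, rfl⟩ y
    obtain ⟨y, rfl⟩ := hf y
    refine ⟨y i * t * (y i)⁻¹, ?_⟩
    rw [hg, hg, ← map_inv, ← map_mul, ← map_mul]
    congr 1
    ext j
    by_cases e : j = i
    · subst e; simp
    · simp [e]⟩
  obtain ⟨i, hi⟩ : ∃ i, (g i).range = ⊤ := by
    by_contra hc
    push Not at hc
    have h1 : ∀ x, x ∈ f.ker := fun x => Subgroup.pi_mem_of_mulSingle_mem x fun i => by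
      have : g i (x i) ∈ (g i).range := ⟨_, rfl⟩
      rwa [((hn i).eq_bot_or_eq_top).resolve_right (hc i)] at this
    obtain ⟨t, ht⟩ := exists_ne (1 : T)
    obtain ⟨x, rfl⟩ := hf t
    exact ht (h1 x)
  have hs := MonoidHom.range_eq_top.1 hi
  have hj : ∀ j, j ≠ i → ∀ t, g j t = 1 := fun j hj t => by
    rcases (hn j).eq_bot_or_eq_top with h | h
    · have : g j t ∈ (g j).range := ⟨_, rfl⟩
      rwa [h] at this
    · refine absurd ⟨⟨fun a b => ?_⟩⟩ hT
      obtain ⟨a, rfl⟩ := hs a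
      obtain ⟨b, rfl⟩ := MonoidHom.range_eq_top.1 h b
      rw [hg, hg, ← map_mul, ← map_mul, (Pi.mulSingle_commute (f := fun _ => T) hj.symm a b).eq]
  have hinj : Function.Injective (g i) := by
    rw [← MonoidHom.ker_eq_bot_iff]
    refine ((g i).normal_ker.eq_bot_or_eq_top).resolve_right fun h => ?_
    obtain ⟨t, ht⟩ := exists_ne (1 : T)
    obtain ⟨x, rfl⟩ := hs t
    exact ht (show x ∈ (g i).ker by rw [h]; trivial)
  refine ⟨i, MulEquiv.ofBijective (g i) ⟨hinj, hs⟩, fun x => ?_⟩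
  have h1 : (Pi.mulSingle i (x i))⁻¹ * x ∈ f.ker := Subgroup.pi_mem_of_mulSingle_mem _ fun j => by
    by_cases e : j = i
    · subst e; simp
    · exact hj j e _
  rw [MonoidHom.mem_ker, map_mul, map_inv, inv_mul_eq_one] at h1
  exact h1.symm

theorem aut_coord (hT : ¬ IsMulCommutative T) (φ : (I → T) ≃* (I → T)) (j : I) :
    ∃ (i : I) (θ : T ≃* T), ∀ x, φ x j = θ (x i) :=
  exists_coord hT ((Pi.evalMonoidHom (fun _ => T) j).comp φ.toMonoidHom)
    ((Function.surjective_eval j).comp φ.surjective)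

/-- Scott's lemma. -/
theorem scott (hT : ¬ IsMulCommutative T) (D : Subgroup (I → T)) (hD : ∀ i t, ∃ d ∈ D, d i = t) :
    ∃ (c : I → I) (θ : I → T ≃* T), (∀ i j, c i = c j ↔ ∀ d ∈ D, d i = 1 ↔ d j = 1) ∧
      ∀ x, x ∈ D ↔ ∀ i j, c i = c j → θ i (x i) = θ j (x j) := by
  classical
  let r : Setoid I := ⟨fun i j => ∀ d ∈ D, d i = 1 ↔ d j = 1,
    fun _ _ _ => Iff.rfl, fun h d hd => (h d hd).symm, fun h h' d hd => (h d hd).trans (h' d hd)⟩
  let c : I → I := fun i => (Quotient.mk r i).out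
  have hc : ∀ i j, c i = c j ↔ ∀ d ∈ D, d i = 1 ↔ d j = 1 := fun i j => by
    simp only [c, Quotient.out_inj, Quotient.eq]; rfl
  have hcc : ∀ i, c (c i) = c i := fun i => by simp [c]
  have hnorm : ∀ (A : Subgroup (I → T)), A ≤ D → (∀ d ∈ D, ∀ a ∈ A, d * a * d⁻¹ ∈ A) → ∀ i,
      (∀ a ∈ A, a i = 1) ∨ ∀ t, ∃ a ∈ A, a i = t := by
    intro A _ hA i
    have hn : (A.map (Pi.evalMonoidHom (fun _ => T) i)).Normal := ⟨by
      rintro _ ⟨a, ha, rfl⟩ y
      obtain ⟨d, hd, rfl⟩ := hD i y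
      exact ⟨_, hA d hd a ha, rfl⟩⟩
    rcases hn.eq_bot_or_eq_top with h | h
    · left
      intro a ha
      have : a i ∈ A.map (Pi.evalMonoidHom (fun _ => T) i) := ⟨a, ha, rfl⟩
      rwa [h] at this
    · right
      intro t
      exact (show t ∈ A.map (Pi.evalMonoidHom (fun _ => T) i) by rw [h]; trivial)
  let K : Finset I → Subgroup (I → T) := fun J =>
    { carrier := {d | d ∈ D ∧ ∀ j ∈ J, d j = 1}
      one_mem' := ⟨D.one_mem, fun _ _ => rfl⟩
      mul_mem' := fun {a b} ha hb => ⟨D.mul_mem ha.1 hb.1, fun j hj => by simp [ha.2 j hj, hb.2 j hj]⟩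
      inv_mem' := fun {a} ha => ⟨D.inv_mem ha.1, fun j hj => by simp [ha.2 j hj]⟩ }
  have hKn : ∀ J i, (∀ a ∈ K J, a i = 1) ∨ ∀ t, ∃ a ∈ K J, a i = t := fun J =>
    hnorm (K J) (fun _ h => h.1) fun d hd a ha =>
      ⟨D.mul_mem (D.mul_mem hd ha.1) (D.inv_mem hd), fun j hj => by simp [ha.2 j hj]⟩
  obtain ⟨t0, ht0⟩ := exists_ne (1 : T)
  have h1 : ∀ i j, c j ≠ c i → ∀ t, ∃ a ∈ K {j}, a i = t := fun i j hij => by
    refine (hKn {j} i).resolve_left fun h => hij ((hc _ _).2 fun d hd => ⟨fun e => h d ⟨hd, by simpa⟩, ?_⟩)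
    rcases hKn {i} j with h' | h'
    · exact fun e => h' d ⟨hd, by simpa⟩
    · exfalso
      obtain ⟨x, hx, hxi⟩ := hD i t0
      obtain ⟨a, ha, haj⟩ := h' (x j)
      have := h (a⁻¹ * x) ⟨D.mul_mem (D.inv_mem ha.1) hx, by simp [haj]⟩
      rw [Pi.mul_apply, Pi.inv_apply, ha.2 i (by simp), hxi] at this
      exact ht0 (by simpa using this)
  have h2 : ∀ i (J : Finset I), (∀ j ∈ J, c j ≠ c i) → ∀ t, ∃ a ∈ K J, a i = t := by
    intro i J
    induction J using Finset.induction_on with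
    | empty => intro _ t; obtain ⟨d, hd, e⟩ := hD i t; exact ⟨d, ⟨hd, by simp⟩, e⟩
    | insert j J _ ih =>
      intro hJ
      refine (hKn _ i).resolve_left fun h => hT ⟨⟨fun s t => ?_⟩⟩
      obtain ⟨a, ha, rfl⟩ := ih (fun k hk => hJ k (Finset.mem_insert_of_mem hk)) s
      obtain ⟨b, hb, rfl⟩ := h1 i j (hJ j (Finset.mem_insert_self _ _)) t
      have := h (a * b * a⁻¹ * b⁻¹) ⟨D.mul_mem (D.mul_mem (D.mul_mem ha.1 hb.1) (D.inv_mem ha.1))
        (D.inv_mem hb.1), fun k hk => by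
          rcases Finset.mem_insert.1 hk with rfl | hk
          · simp [hb.2 k (by simp)]
          · simp [ha.2 k hk]⟩
      simp only [Pi.mul_apply, Pi.inv_apply] at this
      rwa [mul_inv_eq_one, mul_inv_eq_iff_eq_mul] at this
  have h3 : ∀ i, ∃ θ : T ≃* T, ∀ d ∈ D, θ (d i) = d (c i) := fun i => by
    let p : I → D →* T := fun i => (Pi.evalMonoidHom (fun _ => T) i).comp D.subtype
    have hp : ∀ i, Function.Surjective (p i) := fun i t => by
      obtain ⟨d, hd, e⟩ := hD i t; exact ⟨⟨d, hd⟩, e⟩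
    have hk : (p i).ker = (p (c i)).ker := by
      ext d; exact (hc _ _).1 (hcc i).symm d d.2
    refine ⟨(QuotientGroup.quotientKerEquivOfSurjective _ (hp i)).symm.trans
      ((QuotientGroup.quotientMulEquivOfEq hk).trans
        (QuotientGroup.quotientKerEquivOfSurjective _ (hp (c i)))), fun d hd => ?_⟩
    have : (QuotientGroup.quotientKerEquivOfSurjective _ (hp i)).symm (d i) =
        QuotientGroup.mk ⟨d, hd⟩ := by
      rw [MulEquiv.symm_apply_eq]; rfl
    rw [MulEquiv.trans_apply, this]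
    rfl
  choose θ hθ using h3
  refine ⟨c, θ, hc, fun x => ⟨fun hx i j e => by rw [hθ i x hx, hθ j x hx, e], fun hx => ?_⟩⟩
  haveI := Fintype.ofFinite I
  have h4 : ∀ S : Finset I, ∃ d ∈ D, ∀ i, d i = if c i ∈ S then x i else 1 := by
    intro S
    induction S using Finset.induction_on with
    | empty => exact ⟨1, D.one_mem, by simp⟩
    | insert s S hs ih =>
      obtain ⟨d, hd, hd'⟩ := ih
      by_cases hsc : c s = s
      · obtain ⟨a, ha, has⟩ := h2 s (Finset.univ.filter fun j => c j ≠ c s) (by simp) (x s)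
        refine ⟨a * d, D.mul_mem ha.1 hd, fun i => ?_⟩
        rw [Pi.mul_apply, hd']
        by_cases e : c i = s
        · rw [if_neg (e ▸ hs), if_pos (by simp [e]), mul_one]
          apply (θ i).injective
          rw [hx i s (e.trans hsc.symm), hθ i a ha.1, ← has, hθ s a ha.1, hsc, e]
        · rw [ha.2 i (by simpa [hsc] using e), one_mul]
          simp [e]
      · refine ⟨d, hd, fun i => ?_⟩
        have : c i ≠ s := fun e => hsc (by rw [← e, hcc])
        simp [hd', this]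
  obtain ⟨d, hd, hd'⟩ := h4 Finset.univ
  rwa [show x = d from funext fun i => by simp [hd']]

end H26.Scott
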